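import Cfsg.Agent.Lib.Fusion.Constrained
import Cfsg.Agent.Lib.Fusion.GroupNormal
import Cfsg.Agent.Lib.Fusion.Strong

/-! Constrained systems under surjective morphisms with central kernel; subnormal subgroups of groups. -/

set_option autoImplicit false

namespace CfsgLib.Fusion

open Subgroup Cfsg Cfsg.FusionSystem
open scoped commutatorElement Pointwise

variable {Ω Ω' : Type*} [Group Ω] [Group Ω'] {S : Subgroup Ω} {S' : Subgroup Ω'}

/-- The centralizer of a normal subgroup is strongly closed. -/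
theorem stronglyClosed_centralizer_of_normal [Finite S] (F : FusionSystem S) {Q : Subgroup Ω} (hQ : F.IsNormal Q) :
    F.StronglyClosed (centralizerIn S Q) := by
  have hQs := stronglyClosed_of_isNormal F hQ
  refine ⟨inf_le_left, fun P hP φ hφ x => ?_⟩
  obtain ⟨ψ, hψ, h1, h2⟩ := hQ.2 P φ hφ
  refine ⟨(F.le_of_mem hφ).2 x, mem_centralizer_iff.mpr fun r hr => ?_⟩
  obtain ⟨t, ht, hte⟩ := image_eq_of_stronglyClosed F hQs (le_sup_right : Q ≤ P ⊔ Q) hψ hr
  have hxc : (x : Ω) ∈ centralizer (Q : Set Ω) := (hP x.2).2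
  have hcomm := mem_centralizer_iff.mp hxc t ht
  have hcomm' : t * Subgroup.inclusion le_sup_left x = Subgroup.inclusion le_sup_left x * t := Subtype.ext hcomm
  have h3 := congrArg ψ hcomm'
  rw [map_mul, map_mul, hte, h1] at h3
  exact h3

/-- The image of a normal subgroup under a surjective morphism is normal. -/
theorem isNormal_image (F : FusionSystem S) (F' : FusionSystem S') (α : S →* Ω') (hα : F.IsSurjectiveMorphism F' α)
    {Q : Subgroup Ω} (hQ : F.IsNormal Q) : F'.IsNormal (imageAlong α Q) := by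
  have hr := hα.2.1
  have hQS : Q ≤ S := hQ.1
  refine ⟨image_le_target hr Q, fun P' φ' hφ' => ?_⟩
  have hP'S' : P' ≤ S' := source_le F' hφ'
  set P : Subgroup Ω := preimageAlong α P' with hPd
  obtain ⟨φ, hφ, hP, hvals, hP'', hind⟩ := hα.2.2 P' hP'S' φ' hφ'
  obtain ⟨ψ, hψ, h1, h2⟩ := hQ.2 P φ hφ
  obtain ⟨ψ', hψ', hPs, hvals', hP''', hind'⟩ := hα.1.2 (P ⊔ Q) ψ hψ
  have himg : imageAlong α (P ⊔ Q) = P' ⊔ imageAlong α Q := by
    apply le_antisymm
    · rintro _ ⟨x, hx, rfl⟩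
      have hx' : (x : Ω) ∈ P ⊔ Q := mem_subgroupOf.mp hx
      have hle : P ⊔ Q ≤ preimageAlong α (P' ⊔ imageAlong α Q) := by
        refine sup_le (fun y hy => ?_) (fun y hy => ?_)
        · obtain ⟨hyS, hyP⟩ := mem_preimage.mp hy
          exact mem_preimage.mpr ⟨hyS, mem_sup_left hyP⟩
        · exact mem_preimage.mpr ⟨hQS hy, mem_sup_right ⟨⟨y, hQS hy⟩, mem_subgroupOf.mpr hy, rfl⟩⟩
      exact (mem_preimage.mp (hle hx')).2
    · refine sup_le (fun y hy => ?_) ?_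
      · have hyr : y ∈ α.range := hr ▸ hP'S' hy
        obtain ⟨s, hs⟩ := hyr
        have hsP : (s : Ω) ∈ P := mem_preimage.mpr ⟨s.2, by
          have : α ⟨s, s.2⟩ = y := hs
          rw [this]
          exact hy⟩
        exact ⟨s, mem_subgroupOf.mpr (mem_sup_left hsP), hs⟩
      · rintro _ ⟨x, hx, rfl⟩
        exact ⟨x, mem_subgroupOf.mpr (mem_sup_right (mem_subgroupOf.mp hx)), rfl⟩
  obtain ⟨g, hg, hge⟩ := hom_cast F' himg hψ'
  refine ⟨g, hg, fun x => ?_, ?_⟩
  · have hxr : (x : Ω') ∈ α.range := hr ▸ hP'S' x.2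
    obtain ⟨s, hs⟩ := hxr
    have hsP : (s : Ω) ∈ P := mem_preimage.mpr ⟨s.2, by
      have : α ⟨s, s.2⟩ = x := hs
      rw [this]
      exact x.2⟩
    have hsPQ : (s : Ω) ∈ P ⊔ Q := mem_sup_left hsP
    have e1 := hge x ⟨s, mem_subgroupOf.mpr hsPQ, hs⟩ (mem_sup_left x.2)
    have e2 := hind' ⟨s, hsPQ⟩
    have e3 : (⟨α ⟨(⟨s, hsPQ⟩ : ↥(P ⊔ Q)), hPs hsPQ⟩, hP''' ⟨s, hsPQ⟩⟩ : ↥(imageAlong α (P ⊔ Q))) =
        ⟨x, ⟨s, mem_subgroupOf.mpr hsPQ, hs⟩⟩ := Subtype.ext hs
    rw [e3] at e2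
    have e4 := hind ⟨s, hsP⟩
    have e5 : (⟨α ⟨(⟨s, hsP⟩ : P), hP hsP⟩, hP'' ⟨s, hsP⟩⟩ : P') = x := Subtype.ext hs
    rw [e5] at e4
    show g (Subgroup.inclusion le_sup_left x) = φ' x
    refine Eq.trans e1 (Eq.trans e2 (Eq.trans ?_ e4.symm))
    congr 1
    apply Subtype.ext
    exact h1 ⟨s, hsP⟩
  · have hmapped : ∀ y : ↥(P ⊔ Q), (y : Ω) ∈ Q → ∃ z : ↥(imageAlong α (P ⊔ Q)), True := fun _ _ => ⟨1, trivial⟩
    apply le_antisymm
    · rintro _ ⟨y, hy, rfl⟩
      obtain ⟨q, hq, hqe⟩ := mem_subgroupOf.mp hy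
      have hq' : (q : Ω) ∈ Q := mem_subgroupOf.mp hq
      have hqPQ : (q : Ω) ∈ P ⊔ Q := mem_sup_right hq'
      have e1 := hge y ⟨q, mem_subgroupOf.mpr hqPQ, hqe⟩ y.2
      have e2 := hind' ⟨q, hqPQ⟩
      have e3 : (⟨α ⟨(⟨q, hqPQ⟩ : ↥(P ⊔ Q)), hPs hqPQ⟩, hP''' ⟨q, hqPQ⟩⟩ : ↥(imageAlong α (P ⊔ Q))) =
          ⟨y, ⟨q, mem_subgroupOf.mpr hqPQ, hqe⟩⟩ := Subtype.ext hqe
      rw [e3] at e2
      show g y ∈ _
      have e4 : g y = ψ' ⟨y, ⟨q, mem_subgroupOf.mpr hqPQ, hqe⟩⟩ := e1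
      rw [e4, e2]
      have h3 : ψ ⟨q, hqPQ⟩ ∈ (Q.subgroupOf (P ⊔ Q)).map ψ := ⟨⟨q, hqPQ⟩, mem_subgroupOf.mpr hq', rfl⟩
      rw [h2] at h3
      exact ⟨⟨_, hQS h3⟩, mem_subgroupOf.mpr h3, rfl⟩
    · rintro _ ⟨q, hq, rfl⟩
      have hq' : (q : Ω) ∈ Q := mem_subgroupOf.mp hq
      have h3 : (q : Ω) ∈ (Q.subgroupOf (P ⊔ Q)).map ψ := by
        rw [h2]
        exact hq'
      obtain ⟨t, ht, hte⟩ := h3
      have ht' : (t : Ω) ∈ Q := mem_subgroupOf.mp ht
      have hmem : α ⟨t, hQS ht'⟩ ∈ P' ⊔ imageAlong α Q := mem_sup_right ⟨⟨t, hQS ht'⟩, mem_subgroupOf.mpr ht', rfl⟩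
      refine ⟨⟨_, hmem⟩, mem_subgroupOf.mpr ⟨⟨t, hQS ht'⟩, mem_subgroupOf.mpr ht', rfl⟩, ?_⟩
      have hmm : α ⟨t, hQS ht'⟩ ∈ imageAlong α (P ⊔ Q) := ⟨⟨t, hQS ht'⟩, mem_subgroupOf.mpr t.2, rfl⟩
      have e1 := hge _ hmm hmem
      rw [e1]
      have e2 := hind' t
      have e3 : (⟨α ⟨(t : Ω), hPs t.2⟩, hP''' t⟩ : ↥(imageAlong α (P ⊔ Q))) = ⟨α ⟨t, hQS ht'⟩, hmm⟩ := rfl
      rw [e3] at e2
      rw [e2]
      congr 2

variable [Finite S] {p : ℕ} [hp : Fact p.Prime]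

/-- A surjective morphism with kernel central in `S` carries constrained systems to constrained systems. -/
theorem isConstrained_image (hS : IsPGroup p S) (F : FusionSystem S) (hFc : F.IsConstrained p) (F' : FusionSystem S')
    (α : S →* Ω') (hα : F.IsSurjectiveMorphism F' α) (hK : ∀ k : S, α k = 1 → ∀ s : S, k * s = s * k) :
    F'.IsConstrained p := by
  obtain ⟨hF, Q₀, hQ₀, hC₀⟩ := hFc
  haveI := finite_of_surj F F' α hα
  have hF' := isSaturated_of_surjective hS F hF F' α hα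
  have hQ : F.IsNormal F.core := isNormal_core F
  set Q := F.core with hQd
  have hQ₀Q : Q₀ ≤ Q := le_sSup hQ₀
  have hC : centralizerIn S Q ≤ Q := by
    refine le_trans ?_ hQ₀Q
    refine le_trans ?_ (hC₀.2 Q₀ (isConj_refl F hQ₀.1))
    exact inf_le_inf_left _ (centralizer_le hQ₀Q)
  have hQs := stronglyClosed_of_isNormal F hQ
  have hQS : Q ≤ S := hQ.1
  set K : Subgroup Ω := (α.ker).map S.subtype with hKd
  have hKs : F.StronglyClosed K := stronglyClosed_ker F F' α hα.1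
  have hKab : IsMulCommutative K := by
    refine ⟨⟨fun a b => Subtype.ext ?_⟩⟩
    obtain ⟨_, x, hx, rfl⟩ := a
    obtain ⟨_, y, hy, rfl⟩ := b
    have h1 : (x : Ω) * y = y * x := congrArg Subtype.val (hK x hx y)
    exact h1
  have hKn : F.IsNormal K := by
    refine isNormal_of_chain hS F hF hKs (threeChain K K) 1 rfl rfl (threeChain_mono le_rfl) ?_ ?_
    · intro i hi
      have hi0 : i = 0 := by omega
      subst hi0
      show ⁅K, K⁆ ≤ ⊥
      rw [le_bot_iff, commutator_eq_bot_iff_le_centralizer]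
      intro x hx
      rw [mem_centralizer_iff]
      intro y hy
      have := hKab.is_comm.comm ⟨y, hy⟩ ⟨x, hx⟩
      exact congrArg Subtype.val this
    · intro i _
      exact weaklyClosed_of_stronglyClosed F (threeChain_sc F hKs hKs i)
  have hKQ : K ≤ Q := le_sSup hKn
  have hQ'n := isNormal_image F F' α hα hQ
  have hCs := stronglyClosed_centralizer_of_normal F' hQ'n
  have hW := stronglyClosed_preimage F F' α hα hCs
  have hWn : F.IsNormal (preimageAlong α (centralizerIn S' (imageAlong α Q))) := by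
    refine isNormal_of_stable_on_normal hS F hF hQ hC (threeChain K Q) 2 rfl rfl (threeChain_mono hKQ)
      (threeChain_sc F hKs hQs) hW ?_
    intro w hw j hj x hx
    obtain ⟨hwS, hwC⟩ := mem_preimage.mp hw
    rcases j with _ | j
    · obtain ⟨k, hk, rfl⟩ := hx
      have h1 := hK k hk ⟨w, hwS⟩
      have h2 : (k : Ω) * w = w * k := congrArg Subtype.val h1
      have e : (S.subtype k)⁻¹ * (w * (S.subtype k) * w⁻¹) = 1 := by
        show (k : Ω)⁻¹ * (w * k * w⁻¹) = 1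
        rw [← h2]
        group
      rw [e]
      exact one_mem _
    · have hj1 : j = 0 := by omega
      subst hj1
      have hxQ : x ∈ Q := hx
      have hxS : x ∈ S := hQS hxQ
      have hQn := le_normalizer_of_weaklyClosed F (weaklyClosed_of_stronglyClosed F hQs)
      show x⁻¹ * (w * x * w⁻¹) ∈ K
      have hmem : x⁻¹ * (w * x * w⁻¹) ∈ Q := Q.mul_mem (Q.inv_mem hxQ) ((mem_normalizer_iff.mp (hQn hwS) x).mp hxQ)
      refine ⟨⟨_, hQS hmem⟩, ?_, rfl⟩
      rw [SetLike.mem_coe, MonoidHom.mem_ker]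
      have e : (⟨x⁻¹ * (w * x * w⁻¹), hQS hmem⟩ : S) = (⟨x, hxS⟩ : S)⁻¹ * ((⟨w, hwS⟩ : S) * ⟨x, hxS⟩ * (⟨w, hwS⟩ : S)⁻¹) := rfl
      rw [e, map_mul, map_mul, map_mul, map_inv, map_inv]
      have h1 : α ⟨x, hxS⟩ ∈ imageAlong α Q := ⟨⟨x, hxS⟩, mem_subgroupOf.mpr hxQ, rfl⟩
      have h2 : α ⟨x, hxS⟩ * α ⟨w, hwS⟩ = α ⟨w, hwS⟩ * α ⟨x, hxS⟩ := mem_centralizer_iff.mp hwC.2 _ h1
      rw [← h2]
      group
  have hWQ : preimageAlong α (centralizerIn S' (imageAlong α Q)) ≤ Q := le_sSup hWn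
  refine ⟨hF', imageAlong α Q, hQ'n, hQ'n.1, fun R' hR' => ?_⟩
  obtain ⟨φ, hφ, rfl⟩ := hR'
  rw [(weaklyClosed_of_stronglyClosed F' (stronglyClosed_of_isNormal F' hQ'n)).2 φ hφ]
  intro y hy
  have hyS' : y ∈ S' := hy.1
  have hyr : y ∈ α.range := hα.2.1 ▸ hyS'
  obtain ⟨s, hs⟩ := hyr
  have hsW : (s : Ω) ∈ preimageAlong α (centralizerIn S' (imageAlong α Q)) := mem_preimage.mpr ⟨s.2, by
    have : α ⟨s, s.2⟩ = y := hs
    rw [this]
    exact hy⟩
  exact ⟨s, mem_subgroupOf.mpr (hWQ hsW), hs⟩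

section groups

variable {G : Type*} [Group G] [Finite G] {p : ℕ} [hp : Fact p.Prime]

theorem constrained_cast {T T' : Subgroup Ω} (h : T = T') (F : FusionSystem T) (F' : FusionSystem T')
    (hh : ∀ P, F.Hom P = F'.Hom P) {p : ℕ} (hF : F.IsConstrained p) : F'.IsConstrained p := by
  subst h
  have : F = F' := fusion_ext hh
  rwa [← this]

theorem sylow_trace_of_normal {K H T : Subgroup G} (hn : (H.subgroupOf K).Normal) (hHK : H ≤ K) (hT : T ≤ K)
    (R : Sylow p K) (hR : (R : Subgroup K) = T.subgroupOf K) :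
    ∃ R' : Sylow p H, (R' : Subgroup H) = (T ⊓ H).subgroupOf H := by
  rw [exists_sylow_subgroupOf_iff inf_le_right]
  have hTp : IsPGroup p T := ((exists_sylow_subgroupOf_iff hT).mp ⟨R, hR⟩).1
  refine ⟨hTp.to_le inf_le_left, fun B hB hBp => ?_⟩
  have hB' : IsPGroup p (B.subgroupOf K) := hBp.comap_of_injective K.subtype K.subtype_injective
  obtain ⟨x, hx⟩ := exists_conj_le_sylow R hB'
  rw [← card_map_conj B (x : G)]
  refine Subgroup.card_le_of_le ?_
  rintro _ ⟨b, hb, rfl⟩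
  have hbK : b ∈ K := hHK (hB hb)
  have h1 : (MulAut.conj x).toMonoidHom ⟨b, hbK⟩ ∈ (R : Subgroup K) := hx ⟨⟨b, hbK⟩, mem_subgroupOf.mpr hb, rfl⟩
  rw [hR] at h1
  refine ⟨mem_subgroupOf.mp h1, ?_⟩
  have h2 := hn.conj_mem ⟨b, hbK⟩ (mem_subgroupOf.mpr (hB hb)) x
  exact mem_subgroupOf.mp h2

/-- The `G`-form of the subnormal induction. -/
theorem subnormal_constrained (S : Sylow p G) {H : Subgroup G} (hH : H.IsSubnormal)
    (hF : (groupFusionSystem (S : Subgroup G)).IsConstrained p) :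
    (∃ R : Sylow p H, (R : Subgroup H) = ((S : Subgroup G) ⊓ H).subgroupOf H) ∧
      (fusionSystemOfSubgroup H ((S : Subgroup G) ⊓ H) inf_le_right).IsConstrained p := by
  induction hH with
  | top =>
    constructor
    · rw [exists_sylow_subgroupOf_iff inf_le_right]
      refine ⟨S.2.to_le inf_le_left, fun B _ hBp => ?_⟩
      obtain ⟨x, hx⟩ := exists_conj_le_sylow S hBp
      rw [← card_map_conj B x]
      exact Subgroup.card_le_of_le (le_inf hx le_top)
    · refine constrained_cast (inf_top_eq _).symm _ _ (fun P => ?_) hF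
      ext φ
      constructor
      · rintro ⟨hP, hv, g, hg⟩
        exact ⟨le_inf hP le_top, fun x => ⟨hv x, mem_top _⟩, g, mem_top _, hg⟩
      · rintro ⟨hP, hv, g, -, hg⟩
        exact ⟨hP.trans inf_le_left, fun x => (hv x).1, g, hg⟩
  | step H K hle hK hN ih =>
    obtain ⟨⟨R, hR⟩, hFK⟩ := ih
    have e : ((S : Subgroup G) ⊓ K) ⊓ H = (S : Subgroup G) ⊓ H := by
      rw [inf_assoc, inf_eq_right.mpr hle]
    obtain ⟨R', hR'⟩ := sylow_trace_of_normal hN hle inf_le_right R hR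
    rw [e] at hR'
    refine ⟨⟨R', hR'⟩, ?_⟩
    have hEs := fusionOfSubgroup_isSaturated H ((S : Subgroup G) ⊓ H) inf_le_right R' hR'
    have hsle : (S : Subgroup G) ⊓ H ≤ (S : Subgroup G) ⊓ K := inf_le_inf_left _ hle
    refine isConstrained_of_stronglyClosed (S.2.to_le inf_le_left) _ hFK _ hEs ?_ ⟨hsle, ?_⟩
    · rintro P φ ⟨hP, hv, g, hg, hge⟩
      exact ⟨hP.trans hsle, fun x => hsle (hv x), g, hle hg, hge⟩
    · rintro P hP φ ⟨-, hv, g, hg, hge⟩ x
      refine ⟨(hv x).1, ?_⟩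
      rw [hge x]
      have h2 := hN.conj_mem ⟨x, (hP x.2).2 |> hle⟩ (mem_subgroupOf.mpr (hP x.2).2) ⟨g, hg⟩
      exact mem_subgroupOf.mp h2

/-- The inclusion of `S ∩ H` in `H` is an isomorphism of fusion systems. -/
theorem surj_to_subgroup (T H : Subgroup G) (hTH : T ≤ H) :
    (fusionSystemOfSubgroup H T hTH).IsSurjectiveMorphism (groupFusionSystem (T.subgroupOf H)) (Subgroup.inclusion hTH) := by
  have hrange : (Subgroup.inclusion hTH).range = T.subgroupOf H := by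
    ext x
    constructor
    · rintro ⟨y, rfl⟩
      exact mem_subgroupOf.mpr y.2
    · intro hx
      exact ⟨⟨x, mem_subgroupOf.mp hx⟩, rfl⟩
  refine ⟨⟨fun s => mem_subgroupOf.mpr s.2, fun P φ hφ => ?_⟩, hrange, fun P' hP' φ' hφ' => ?_⟩
  · obtain ⟨hP, hv, g, hg, hge⟩ := hφ
    have hP' : ∀ x : P, Subgroup.inclusion hTH ⟨x, hP x.2⟩ ∈ imageAlong (Subgroup.inclusion hTH) P := fun x =>
      ⟨⟨x, hP x.2⟩, mem_subgroupOf.mpr x.2, rfl⟩
    refine ⟨conjHom _ ⟨g, hg⟩, ⟨?_, ?_, ⟨g, hg⟩, fun _ => rfl⟩, hP, hv, hP', fun x => ?_⟩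
    · rintro _ ⟨y, -, rfl⟩
      exact mem_subgroupOf.mpr y.2
    · rintro ⟨_, y, hy, rfl⟩
      refine mem_subgroupOf.mpr ?_
      have h1 := hv ⟨y, mem_subgroupOf.mp hy⟩
      rw [hge] at h1
      exact h1
    · apply Subtype.ext
      exact (hge x).symm
  · obtain ⟨hPP, hv, g, hge⟩ := hφ'
    have hpre : preimageAlong (Subgroup.inclusion hTH) P' ≤ T := preimage_le _ _
    have hval : ∀ x : ↥(preimageAlong (Subgroup.inclusion hTH) P'), conjHom _ (g : G) x ∈ T := by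
      intro x
      obtain ⟨h1, h2⟩ := mem_preimage.mp x.2
      have h3 := hv ⟨_, h2⟩
      rw [hge] at h3
      exact mem_subgroupOf.mp h3
    refine ⟨conjHom _ (g : G), ⟨hpre, hval, g, g.2, fun _ => rfl⟩, hpre, hval, fun x => (mem_preimage.mp x.2).2, fun x => ?_⟩
    rw [hge]
    exact Subtype.ext rfl

/-- **S5115**, for any prime. -/
theorem isConstrained_of_subnormal (S : Sylow p G) (hF : (groupFusionSystem (S : Subgroup G)).IsConstrained p)
    (H : Subgroup G) (hH : H.IsSubnormal) : (groupFusionSystem ((S : Subgroup G).subgroupOf H)).IsConstrained p := by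
  obtain ⟨-, h2⟩ := subnormal_constrained S hH hF
  have hα := surj_to_subgroup ((S : Subgroup G) ⊓ H) H inf_le_right
  have h3 := isConstrained_image (S.2.to_le inf_le_left) _ h2 _ _ hα (fun k hk s => by
    have : k = 1 := Subgroup.inclusion_injective _ (by rw [hk, map_one])
    rw [this, one_mul, mul_one])
  have e : ((S : Subgroup G) ⊓ H).subgroupOf H = (S : Subgroup G).subgroupOf H := by
    ext x
    simp [mem_subgroupOf]
  refine constrained_cast e _ _ (fun P => ?_) h3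
  ext φ
  constructor
  · rintro ⟨hP, hv, g⟩
    exact ⟨e ▸ hP, fun x => e ▸ hv x, g⟩
  · rintro ⟨hP, hv, g⟩
    exact ⟨e ▸ hP, fun x => e ▸ hv x, g⟩

/-- The conjugate of a `p`-element landing modulo the centre in a Sylow subgroup lies in the Sylow subgroup. -/
theorem conj_mem_of_mod_center {L : Type*} [Group L] [Finite L] (R : Sylow p L) {y : L} (hy : ∃ n : ℕ, y ^ p ^ n = 1)
    (hmod : QuotientGroup.mk' (Subgroup.center L) y ∈ (R : Subgroup L).map (QuotientGroup.mk' (Subgroup.center L))) :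
    y ∈ (R : Subgroup L) := by
  obtain ⟨s, hs, hse⟩ := hmod
  have hz : s⁻¹ * y ∈ Subgroup.center L := by
    have h1 : (QuotientGroup.mk s : L ⧸ Subgroup.center L) = QuotientGroup.mk y := hse
    exact QuotientGroup.eq.mp h1
  set z := s⁻¹ * y with hzd
  have hyz : y = s * z := by rw [hzd]; group
  obtain ⟨n, hn⟩ := hy
  obtain ⟨m, hm⟩ := R.2 ⟨s, hs⟩
  have hm' : s ^ p ^ m = 1 := by
    have := congrArg Subtype.val hm
    simpa using this
  have hcomm : Commute s⁻¹ y := by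
    rw [hyz]
    have h2 : Commute s⁻¹ z := Subgroup.mem_center_iff.mp hz s⁻¹
    exact (Commute.refl s).inv_left.mul_right h2
  have hzN : z ^ p ^ (n + m) = 1 := by
    rw [hzd, hcomm.mul_pow, inv_pow, pow_add, mul_comm (p ^ n), pow_mul, hm', one_pow, inv_one, one_mul,
      mul_comm (p ^ m), pow_mul, hn, one_pow]
  have hP : IsPGroup p (zpowers z) := by
    rintro ⟨w, hw⟩
    obtain ⟨k, rfl⟩ := mem_zpowers_iff.mp hw
    refine ⟨n + m, Subtype.ext ?_⟩
    show (z ^ k) ^ p ^ (n + m) = 1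
    rw [← zpow_natCast, ← zpow_mul, mul_comm, zpow_mul, zpow_natCast, hzN, one_zpow]
  have h3 : (zpowers z) ⊓ normalizer ((R : Subgroup L) : Set L) = zpowers z ⊓ (R : Subgroup L) := hP.inf_normalizer_sylow R
  have hzn : z ∈ (zpowers z) ⊓ normalizer ((R : Subgroup L) : Set L) := by
    refine ⟨mem_zpowers z, ?_⟩
    show z ∈ normalizer ((R : Subgroup L) : Set L)
    rw [mem_normalizer_iff]
    intro h
    have e : z * h * z⁻¹ = h := by
      have := (Subgroup.mem_center_iff.mp hz h).symm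
      rw [this]
      group
    rw [e]
  rw [h3] at hzn
  rw [hyz]
  exact (R : Subgroup L).mul_mem hs hzn.2

/-- The quotient by the centre of the ambient group is a surjective morphism. -/
theorem surj_quotient_center {L : Type*} [Group L] [Finite L] (R : Sylow p L) :
    (groupFusionSystem (R : Subgroup L)).IsSurjectiveMorphism
      (groupFusionSystem ((R : Subgroup L).map (QuotientGroup.mk' (Subgroup.center L))))
      ((QuotientGroup.mk' (Subgroup.center L)).comp (R : Subgroup L).subtype) := by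
  set α : ↥(R : Subgroup L) →* L ⧸ Subgroup.center L := (QuotientGroup.mk' (Subgroup.center L)).comp (R : Subgroup L).subtype with hαd
  have hrange : α.range = (R : Subgroup L).map (QuotientGroup.mk' (Subgroup.center L)) := by
    rw [hαd, MonoidHom.range_comp, range_subtype]
  refine ⟨⟨fun s => ⟨s, s.2, rfl⟩, fun P φ hφ => ?_⟩, hrange, fun P' hP' φ' hφ' => ?_⟩
  · obtain ⟨hP, hv, g, hge⟩ := hφ
    have hP' : ∀ x : P, α ⟨x, hP x.2⟩ ∈ imageAlong α P := fun x => ⟨⟨x, hP x.2⟩, mem_subgroupOf.mpr x.2, rfl⟩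
    refine ⟨conjHom _ (QuotientGroup.mk' (Subgroup.center L) g), ⟨?_, ?_, _, fun _ => rfl⟩, hP, hv, hP', fun x => ?_⟩
    · rintro _ ⟨y, -, rfl⟩
      exact ⟨y, y.2, rfl⟩
    · rintro ⟨_, y, hy, rfl⟩
      have h1 := hv ⟨y, mem_subgroupOf.mp hy⟩
      rw [hge] at h1
      refine ⟨_, h1, ?_⟩
      rfl
    · show _ = QuotientGroup.mk' (Subgroup.center L) (φ x)
      rw [hge x]
      rfl
  · obtain ⟨hPP, hv, gb, hge⟩ := hφ'
    obtain ⟨g, rfl⟩ := QuotientGroup.mk'_surjective (Subgroup.center L) gb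
    have hpre : preimageAlong α P' ≤ (R : Subgroup L) := preimage_le _ _
    have hval : ∀ x : ↥(preimageAlong α P'), conjHom _ g x ∈ (R : Subgroup L) := by
      intro x
      obtain ⟨h1, h2⟩ := mem_preimage.mp x.2
      have h3 := hv ⟨_, h2⟩
      rw [hge] at h3
      refine conj_mem_of_mod_center R ?_ h3
      obtain ⟨m, hm⟩ := R.2 ⟨x, h1⟩
      have hm' : (x : L) ^ p ^ m = 1 := by
        have := congrArg Subtype.val hm
        simpa using this
      refine ⟨m, ?_⟩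
      show (g * (x : L) * g⁻¹) ^ p ^ m = 1
      rw [conj_pow, hm']
      group
    refine ⟨conjHom _ g, ⟨hpre, hval, g, fun _ => rfl⟩, hpre, hval, fun x => (mem_preimage.mp x.2).2, fun x => ?_⟩
    rw [hge]
    rfl

/-- **S5147**, for any prime and any subnormal subgroup. -/
theorem isConstrained_quotient_center (S : Sylow p G) (hF : (groupFusionSystem (S : Subgroup G)).IsConstrained p)
    (L : Subgroup G) (hL : L.IsSubnormal) :
    (groupFusionSystem (((S : Subgroup G).subgroupOf L).map (QuotientGroup.mk' (Subgroup.center L)))).IsConstrained p := by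
  have h1 := isConstrained_of_subnormal S hF L hL
  obtain ⟨⟨R, hR⟩, -⟩ := subnormal_constrained S hL hF
  have e : ((S : Subgroup G) ⊓ L).subgroupOf L = (S : Subgroup G).subgroupOf L := by
    ext x
    simp [mem_subgroupOf]
  rw [e] at hR
  rw [← hR] at h1 ⊢
  refine isConstrained_image R.2 _ h1 _ _ (surj_quotient_center R) fun k hk s => ?_
  have hk' : (k : L) ∈ Subgroup.center L := (QuotientGroup.eq_one_iff _).mp hk
  apply Subtype.ext
  exact (Subgroup.mem_center_iff.mp hk' s).symm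

end groups

end CfsgLib.Fusion
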